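import Cfsg.Agent.H298.OT.Two
import Cfsg.Agent.H214.OT.Defs

/-!
# S2539: `Core` (helper298) gives `Conf` (helper214)
-/

set_option autoImplicit false

namespace Cfsg.Agent.H298.OT

open Subgroup

/-- The output of part 2 in the form used in part 4. -/
theorem Core.exists_conf {G : Type*} [Group G] [Finite G] {A : Subgroup G} (h : Core A) :
    ∃ L : Subgroup G, H214.OT.Conf A L ∧ A ⊓ L ≠ ⊥ := by
  obtain ⟨L, hL, hS, hna, hsup, hC, hAL⟩ := h.main
  refine ⟨L, ⟨h.comm, h.ti, ?_, h.ne, h.uniq, hL, hS, ?_, ?_, ?_⟩, hAL⟩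
  · intro y hy
    apply h.cent
    rw [mem_centralizer_iff]
    exact hy
  · intro hc
    exact hna fun x y => hc.is_comm.comm x y
  · intro y hy
    have h1 : y ∈ centralizer (L : Set G) := by
      rw [mem_centralizer_iff]
      exact hy
    rwa [hC, mem_bot] at h1
  · rw [sup_comm]
    exact hsup

/-- The same for the minimal counterexample itself. -/
theorem Ctx.exists_conf {F : Type*} [Group F] [Finite F] {T : Subgroup F} (h : Ctx T) :
    ∃ L : Subgroup (F ⧸ center F), H214.OT.Conf (T.map (QuotientGroup.mk' (center F))) L ∧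
      T.map (QuotientGroup.mk' (center F)) ⊓ L ≠ ⊥ :=
  h.core.exists_conf

end Cfsg.Agent.H298.OT
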